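import Mathlib
import Cfsg.Agent.Lib.Helper31.OTSM.Defs

/-!
# OTSM (S5987): package [EXODDM]

An isometry `y₀` of the plus form on `Fin k ⊕ Fin k` extended by the identity on the anisotropic
plane is an isometry of the minus form with the same moved-space dimension.
-/

set_option autoImplicit false
open scoped MatrixGroups
open Matrix

namespace Cfsg.Agent.Lib.Helper38.OTSM

open Cfsg.Agent.Lib.Helper23.OHyp Cfsg.Agent.Lib.Helper64.OParM Cfsg.Agent.Lib.Helper99.OTSP
  Cfsg.Agent.Lib.Helper31.OTSM Module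

universe u

section

variable {F : Type u} [Field F] {α β : Type} [Fintype α] [DecidableEq α] [Fintype β]
  [DecidableEq β]

/-- `A ↦ diag(A, 1)` as a monoid homomorphism. -/
noncomputable def extHom (F : Type u) [Field F] (α β : Type) [Fintype α] [DecidableEq α]
    [Fintype β] [DecidableEq β] : Matrix α α F →* Matrix (α ⊕ β) (α ⊕ β) F where
  toFun A := Matrix.fromBlocks A 0 0 1
  map_one' := Matrix.fromBlocks_one
  map_mul' A B := by
    rw [Matrix.fromBlocks_multiply]
    simp

theorem extHom_apply (A : Matrix α α F) : extHom F α β A = Matrix.fromBlocks A 0 0 1 := rfl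

theorem extHom_mulVec (A : Matrix α α F) (v : α ⊕ β → F) :
    extHom F α β A *ᵥ v = Sum.elim (A *ᵥ (v ∘ Sum.inl)) (v ∘ Sum.inr) := by
  have hv : v = Sum.elim (v ∘ Sum.inl) (v ∘ Sum.inr) := (Sum.elim_comp_inl_inr v).symm
  rw [extHom_apply]
  conv_lhs => rw [hv, Matrix.fromBlocks_mulVec]
  simp only [Sum.elim_comp_inl, Sum.elim_comp_inr, Matrix.zero_mulVec, add_zero, zero_add,
    Matrix.one_mulVec]

/-- the embedding `w ↦ (w, 0)`. -/
noncomputable def embL0 (F : Type u) [Field F] (α β : Type) : (α → F) →ₗ[F] (α ⊕ β → F) where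
  toFun w := Sum.elim w 0
  map_add' w w' := by
    funext x
    rcases x with x | x <;> simp
  map_smul' c w := by
    funext x
    rcases x with x | x <;> simp

omit [Fintype α] [DecidableEq α] [Fintype β] [DecidableEq β] in
theorem embL0_inj : Function.Injective (embL0 F α β) := by
  intro w w' h
  funext x
  have := congrFun h (Sum.inl x)
  exact this

theorem movSp_extHom (A : Matrix α α F) :
    movSp (extHom F α β A) = (movSp A).map (embL0 F α β) := by
  apply le_antisymm
  · rintro _ ⟨v, rfl⟩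
    refine ⟨(Matrix.toLin' A - 1) (v ∘ Sum.inl), ⟨v ∘ Sum.inl, rfl⟩, ?_⟩
    show Sum.elim ((Matrix.toLin' A - 1) (v ∘ Sum.inl)) 0 = (Matrix.toLin' (extHom F α β A) - 1) v
    rw [LinearMap.sub_apply, LinearMap.sub_apply, Matrix.toLin'_apply, Matrix.toLin'_apply,
      extHom_mulVec]
    funext x
    rcases x with x | x <;> simp
  · rintro _ ⟨_, ⟨w, rfl⟩, rfl⟩
    refine ⟨Sum.elim w 0, ?_⟩
    show (Matrix.toLin' (extHom F α β A) - 1) (Sum.elim w 0) = Sum.elim ((Matrix.toLin' A - 1) w) 0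
    rw [LinearMap.sub_apply, LinearMap.sub_apply, Matrix.toLin'_apply, Matrix.toLin'_apply,
      extHom_mulVec]
    funext x
    rcases x with x | x <;> simp

theorem finrank_movSp_extHom (A : Matrix α α F) :
    finrank F ↥(movSp (extHom F α β A)) = finrank F ↥(movSp A) := by
  rw [movSp_extHom]
  exact (Submodule.equivMapOfInjective (embL0 F α β) embL0_inj (movSp A)).finrank_eq.symm

end

theorem minus_eq_plus {F : Type u} [Field F] (k : ℕ) (a b : F) (v : MI k → F) :
    Cfsg.quadFormMinus k F a b v = Cfsg.quadFormPlus k F (v ∘ Sum.inl) +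
      (v (Sum.inr 0) ^ 2 + a * v (Sum.inr 0) * v (Sum.inr 1) + b * v (Sum.inr 1) ^ 2) := rfl

theorem pkgExOddM_of (hE : PkgExOdd.{u}) : PkgExOddM.{u} := by
  intro F _ _ k r j a b hab hr hr2 hrq hodd hj hle
  obtain ⟨y₀, hy₀, hpow, hfin⟩ := hE F k r j hr hr2 hrq hodd hj hle
  refine ⟨Units.map (extHom F (Fin k ⊕ Fin k) (Fin 2)) y₀, ?_, ?_, ?_⟩
  · intro v _
    show Cfsg.quadFormMinus k F a b
      (extHom F (Fin k ⊕ Fin k) (Fin 2) (y₀ : Matrix (Fin k ⊕ Fin k) (Fin k ⊕ Fin k) F) *ᵥ v) =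
      Cfsg.quadFormMinus k F a b v
    rw [extHom_mulVec, minus_eq_plus, minus_eq_plus]
    simp only [Sum.elim_comp_inl, Sum.elim_inr, Function.comp_apply]
    congr 1
    exact hy₀ (v ∘ Sum.inl) (v ∘ Sum.inl)
  · rw [← map_pow, hpow, map_one]
  · show finrank F ↥(movSp (extHom F (Fin k ⊕ Fin k) (Fin 2)
      (y₀ : Matrix (Fin k ⊕ Fin k) (Fin k ⊕ Fin k) F))) = _
    rw [finrank_movSp_extHom]
    exact hfin

end Cfsg.Agent.Lib.Helper38.OTSM
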